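import Mathlib
import Cfsg.Agent.Lib.Helper31.Siegel.Defs
import Cfsg.Agent.Lib.Helper99.RootGrp2

/-!
# Project Siegel (S5072), package [SL2]

Two opposite singular lines `⟨p, r⟩`, `⟨s, t⟩` in dual position (`B p s = 1`, `B r t = 1`,
`B p t = 0`, `B r s = 0`): the Siegel transvection groups `T p r`, `T s t` are the images of the
unitriangular subgroups under an injective homomorphism `SL₂(F) → O(Q)`.
-/

set_option autoImplicit false
open scoped Matrix

namespace Cfsg.Agent.Lib.Helper32.Siegel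

open Cfsg.Agent.Lib.Helper31.Siegel

universe u

section

variable {n : ℕ} {F : Type u} [Field F]

/-- a hyperbolic quadruple: `p, r, s, t` singular, `B p s = 1 = B r t`, all other products `0`. -/
structure Hyp4 (p r s t : Vec n F) : Prop where
  ps : B p s = 1
  rt : B r t = 1
  pt : B p t = 0
  rs : B r s = 0
  pr : B p r = 0
  st : B s t = 0
  Qp : QF n F p = 0
  Qr : QF n F r = 0
  Qs : QF n F s = 0
  Qt : QF n F t = 0

namespace Hyp4

variable {p r s t : Vec n F} (h : Hyp4 p r s t)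
include h

theorem sp : B s p = 1 := by rw [B_comm]; exact h.ps
theorem tr : B t r = 1 := by rw [B_comm]; exact h.rt
theorem tp : B t p = 0 := by rw [B_comm]; exact h.pt
theorem sr : B s r = 0 := by rw [B_comm]; exact h.rs
theorem rp : B r p = 0 := by rw [B_comm]; exact h.pr
theorem ts : B t s = 0 := by rw [B_comm]; exact h.st
theorem pp : B p p = 0 := by rw [B_self, h.Qp, mul_zero]
theorem rr : B r r = 0 := by rw [B_self, h.Qr, mul_zero]
theorem ss : B s s = 0 := by rw [B_self, h.Qs, mul_zero]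
theorem tt : B t t = 0 := by rw [B_self, h.Qt, mul_zero]

end Hyp4

/-- the action of a `2 × 2` matrix on the two planes `⟨p, t⟩`, `⟨r, -s⟩`, identity on the
orthogonal complement of `⟨p, r, s, t⟩`. -/
def sl2Lin (p r s t : Vec n F) (g : Matrix (Fin 2) (Fin 2) F) : Vec n F →ₗ[F] Vec n F where
  toFun v := v + ((g 0 0 - 1) * B v s + g 0 1 * B v r) • p
      + (g 1 0 * B v s + (g 1 1 - 1) * B v r) • t
      + ((g 0 0 - 1) * B v t - g 0 1 * B v p) • r
      - (g 1 0 * B v t - (g 1 1 - 1) * B v p) • s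
  map_add' v w := by
    simp only [B_add_left]
    module
  map_smul' a v := by
    simp only [B_smul_left, RingHom.id_apply]
    module

theorem sl2Lin_apply (p r s t : Vec n F) (g : Matrix (Fin 2) (Fin 2) F) (v : Vec n F) :
    sl2Lin p r s t g v = v + ((g 0 0 - 1) * B v s + g 0 1 * B v r) • p
      + (g 1 0 * B v s + (g 1 1 - 1) * B v r) • t
      + ((g 0 0 - 1) * B v t - g 0 1 * B v p) • r
      - (g 1 0 * B v t - (g 1 1 - 1) * B v p) • s := rfl

variable {p r s t : Vec n F}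

theorem sl2Lin_Bs (h : Hyp4 p r s t) (g : Matrix (Fin 2) (Fin 2) F) (v : Vec n F) :
    B (sl2Lin p r s t g v) s = g 0 0 * B v s + g 0 1 * B v r := by
  rw [sl2Lin_apply]
  simp only [B_add_left, B_sub_left, B_smul_left, h.ps, h.ts, h.rs, h.ss]
  ring

theorem sl2Lin_Br (h : Hyp4 p r s t) (g : Matrix (Fin 2) (Fin 2) F) (v : Vec n F) :
    B (sl2Lin p r s t g v) r = g 1 0 * B v s + g 1 1 * B v r := by
  rw [sl2Lin_apply]
  simp only [B_add_left, B_sub_left, B_smul_left, h.pr, h.tr, h.rr, h.sr]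
  ring

theorem sl2Lin_Bt (h : Hyp4 p r s t) (g : Matrix (Fin 2) (Fin 2) F) (v : Vec n F) :
    B (sl2Lin p r s t g v) t = g 0 0 * B v t - g 0 1 * B v p := by
  rw [sl2Lin_apply]
  simp only [B_add_left, B_sub_left, B_smul_left, h.pt, h.tt, h.rt, h.st]
  ring

theorem sl2Lin_Bp (h : Hyp4 p r s t) (g : Matrix (Fin 2) (Fin 2) F) (v : Vec n F) :
    B (sl2Lin p r s t g v) p = g 1 1 * B v p - g 1 0 * B v t := by
  rw [sl2Lin_apply]
  simp only [B_add_left, B_sub_left, B_smul_left, h.pp, h.tp, h.rp, h.sp]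
  ring

theorem sl2Lin_comp (h : Hyp4 p r s t) (g g' : Matrix (Fin 2) (Fin 2) F) :
    (sl2Lin p r s t g).comp (sl2Lin p r s t g') = sl2Lin p r s t (g * g') := by
  apply LinearMap.ext
  intro v
  rw [LinearMap.comp_apply, sl2Lin_apply p r s t g, sl2Lin_Bs h, sl2Lin_Br h, sl2Lin_Bt h,
    sl2Lin_Bp h, sl2Lin_apply, sl2Lin_apply]
  simp only [Matrix.mul_apply, Fin.sum_univ_two]
  module

theorem sl2Lin_one (p r s t : Vec n F) :
    sl2Lin p r s t (1 : Matrix (Fin 2) (Fin 2) F) = LinearMap.id := by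
  apply LinearMap.ext
  intro v
  rw [sl2Lin_apply]
  simp

theorem sl2Lin_Q (h : Hyp4 p r s t) (g : Matrix (Fin 2) (Fin 2) F)
    (hg : g 0 0 * g 1 1 - g 0 1 * g 1 0 = 1) (v : Vec n F) :
    QF n F (sl2Lin p r s t g v) = QF n F v := by
  rw [sl2Lin_apply, Q_sub, Q_add, Q_add, Q_add, Q_smul, Q_smul, Q_smul, Q_smul, h.Qp, h.Qt, h.Qr,
    h.Qs]
  simp only [B_add_left, B_smul_left, B_smul_right, h.ps, h.ts, h.rs, h.pt, h.rt, h.pr, h.tr,
    h.tp, h.rp, h.sp, h.sr, h.st]
  linear_combination (B v r * B v t + B v s * B v p) * hg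

/-- the image of `g ∈ SL₂(F)` in `GL`. -/
noncomputable def sl2GL (h : Hyp4 p r s t) (g : Matrix.SpecialLinearGroup (Fin 2) F) :
    Matrix.GeneralLinearGroup (Fin n ⊕ Fin n) F where
  val := LinearMap.toMatrix' (sl2Lin p r s t (g : Matrix (Fin 2) (Fin 2) F))
  inv := LinearMap.toMatrix'
    (sl2Lin p r s t ((g⁻¹ : Matrix.SpecialLinearGroup (Fin 2) F) : Matrix (Fin 2) (Fin 2) F))
  val_inv := by
    rw [← LinearMap.toMatrix'_comp, sl2Lin_comp h, ← Matrix.SpecialLinearGroup.coe_mul,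
      mul_inv_cancel, Matrix.SpecialLinearGroup.coe_one, sl2Lin_one, LinearMap.toMatrix'_id]
  inv_val := by
    rw [← LinearMap.toMatrix'_comp, sl2Lin_comp h, ← Matrix.SpecialLinearGroup.coe_mul,
      inv_mul_cancel, Matrix.SpecialLinearGroup.coe_one, sl2Lin_one, LinearMap.toMatrix'_id]

theorem sl2GL_mulVec (h : Hyp4 p r s t) (g : Matrix.SpecialLinearGroup (Fin 2) F) (v : Vec n F) :
    ((sl2GL h g : Matrix.GeneralLinearGroup (Fin n ⊕ Fin n) F) :
      Matrix (Fin n ⊕ Fin n) (Fin n ⊕ Fin n) F) *ᵥ v =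
      sl2Lin p r s t (g : Matrix (Fin 2) (Fin 2) F) v := by
  show LinearMap.toMatrix' (sl2Lin p r s t (g : Matrix (Fin 2) (Fin 2) F)) *ᵥ v = _
  rw [← Matrix.toLin'_apply, Matrix.toLin'_toMatrix']

theorem sl2GL_mem (h : Hyp4 p r s t) (g : Matrix.SpecialLinearGroup (Fin 2) F) :
    sl2GL h g ∈ Iso n F := by
  intro u v
  show QF n F (((sl2GL h g : Matrix.GeneralLinearGroup (Fin n ⊕ Fin n) F) :
      Matrix (Fin n ⊕ Fin n) (Fin n ⊕ Fin n) F) *ᵥ u) = QF n F u
  rw [sl2GL_mulVec]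
  apply sl2Lin_Q h
  have hdet := g.2
  rw [Matrix.det_fin_two] at hdet
  exact hdet

/-- the homomorphism `SL₂(F) → O(Q)`. -/
noncomputable def sl2Hom (h : Hyp4 p r s t) :
    Matrix.SpecialLinearGroup (Fin 2) F →* ↥(Iso n F) where
  toFun g := ⟨sl2GL h g, sl2GL_mem h g⟩
  map_one' := by
    apply Subtype.ext
    apply Units.ext
    show LinearMap.toMatrix' (sl2Lin p r s t
      ((1 : Matrix.SpecialLinearGroup (Fin 2) F) : Matrix (Fin 2) (Fin 2) F)) = 1
    rw [Matrix.SpecialLinearGroup.coe_one, sl2Lin_one, LinearMap.toMatrix'_id]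
  map_mul' g g' := by
    apply Subtype.ext
    apply Units.ext
    show LinearMap.toMatrix' (sl2Lin p r s t
      ((g * g' : Matrix.SpecialLinearGroup (Fin 2) F) : Matrix (Fin 2) (Fin 2) F)) =
      LinearMap.toMatrix' (sl2Lin p r s t (g : Matrix (Fin 2) (Fin 2) F)) *
        LinearMap.toMatrix' (sl2Lin p r s t (g' : Matrix (Fin 2) (Fin 2) F))
    rw [← LinearMap.toMatrix'_comp, sl2Lin_comp h, Matrix.SpecialLinearGroup.coe_mul]

theorem sl2Hom_act (h : Hyp4 p r s t) (g : Matrix.SpecialLinearGroup (Fin 2) F) (v : Vec n F) :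
    mat (sl2Hom h g) *ᵥ v = sl2Lin p r s t (g : Matrix (Fin 2) (Fin 2) F) v :=
  sl2GL_mulVec h g v

theorem sl2Hom_injective (h : Hyp4 p r s t) : Function.Injective (sl2Hom h) := by
  rw [injective_iff_map_eq_one]
  intro g hg
  have hp := sl2Hom_act h g p
  have ht := sl2Hom_act h g t
  rw [hg, one_act, sl2Lin_apply] at hp ht
  simp only [h.ps, h.pr, h.pt, h.pp, h.ts, h.tr, h.tt, h.tp, mul_one, mul_zero, add_zero,
    sub_zero, zero_smul, zero_add] at hp ht
  -- hp : p = p + (g 0 0 - 1) • p + g 1 0 • t ; ht : t = t + g 0 1 • p + (g 1 1 - 1) • t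
  have e1 := congrArg (fun w => B w s) hp
  have e2 := congrArg (fun w => B w r) hp
  have e3 := congrArg (fun w => B w s) ht
  have e4 := congrArg (fun w => B w r) ht
  simp only [B_add_left, B_sub_left, B_smul_left, h.ps, h.ts, h.pr, h.tr, mul_one, mul_zero,
    add_zero, sub_zero, zero_add] at e1 e2 e3 e4
  apply Subtype.ext
  ext i j
  fin_cases i <;> fin_cases j
  · show (g : Matrix (Fin 2) (Fin 2) F) 0 0 = (1 : Matrix (Fin 2) (Fin 2) F) 0 0
    rw [Matrix.one_apply_eq]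
    linear_combination -e1
  · show (g : Matrix (Fin 2) (Fin 2) F) 0 1 = (1 : Matrix (Fin 2) (Fin 2) F) 0 1
    rw [Matrix.one_apply_ne (by decide)]
    linear_combination -e3
  · show (g : Matrix (Fin 2) (Fin 2) F) 1 0 = (1 : Matrix (Fin 2) (Fin 2) F) 1 0
    rw [Matrix.one_apply_ne (by decide)]
    linear_combination -e2
  · show (g : Matrix (Fin 2) (Fin 2) F) 1 1 = (1 : Matrix (Fin 2) (Fin 2) F) 1 1
    rw [Matrix.one_apply_eq]
    linear_combination -e4

end

/-- **[SL2]** (from [PARAM]). -/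
theorem pkgSL2_of (hP : PkgParam.{u}) : PkgSL2.{u} := by
  intro n F _ p r s t hpr hst hps hrt hpt hrs
  have hBpr : B p r = 0 := by
    have h := Q_add p r
    rw [hpr.2.2.2, hpr.2.1, hpr.2.2.1] at h
    simpa using h.symm
  have hBst : B s t = 0 := by
    have h := Q_add s t
    rw [hst.2.2.2, hst.2.1, hst.2.2.1] at h
    simpa using h.symm
  have h : Hyp4 p r s t :=
    ⟨hps, hrt, hpt, hrs, hBpr, hBst, hpr.2.1, hpr.2.2.1, hst.2.1, hst.2.2.1⟩
  have hup : (Cfsg.upperUnipotentSL2 F).map (sl2Hom h) = T p r := by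
    rw [Cfsg.upperUnipotentSL2, MonoidHom.map_closure]
    apply le_antisymm
    · rw [Subgroup.closure_le]
      rintro _ ⟨g, ⟨h10, h00, h11⟩, rfl⟩
      rw [SetLike.mem_coe, hP n F p r hpr]
      refine ⟨(g : Matrix (Fin 2) (Fin 2) F) 0 1, ?_⟩
      intro v
      rw [sl2Hom_act, sl2Lin_apply, h10, h00, h11]
      module
    · intro σ hσ
      obtain ⟨c, hc⟩ := (hP n F p r hpr σ).1 hσ
      apply Subgroup.subset_closure
      obtain ⟨x, hx⟩ : ∃ x : Matrix.SpecialLinearGroup (Fin 2) F,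
          (x : Matrix (Fin 2) (Fin 2) F) = !![1, c; 0, 1] :=
        ⟨⟨!![1, c; 0, 1], by simp [Matrix.det_fin_two]⟩, rfl⟩
      refine ⟨x, ⟨by rw [hx]; simp, by rw [hx]; simp, by rw [hx]; simp⟩, ?_⟩
      apply ext_act
      intro v
      rw [sl2Hom_act, sl2Lin_apply, hc v, hx]
      simp only [Matrix.of_apply, Matrix.cons_val', Matrix.cons_val_zero, Matrix.cons_val_one,
        Matrix.cons_val_fin_one]
      module
  have hlow : (Cfsg.lowerUnipotentSL2 F).map (sl2Hom h) = T s t := by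
    rw [Cfsg.lowerUnipotentSL2, MonoidHom.map_closure]
    apply le_antisymm
    · rw [Subgroup.closure_le]
      rintro _ ⟨g, ⟨h01, h00, h11⟩, rfl⟩
      rw [SetLike.mem_coe, hP n F s t hst]
      refine ⟨-(g : Matrix (Fin 2) (Fin 2) F) 1 0, ?_⟩
      intro v
      rw [sl2Hom_act, sl2Lin_apply, h01, h00, h11]
      module
    · intro σ hσ
      obtain ⟨c, hc⟩ := (hP n F s t hst σ).1 hσ
      apply Subgroup.subset_closure
      obtain ⟨x, hx⟩ : ∃ x : Matrix.SpecialLinearGroup (Fin 2) F,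
          (x : Matrix (Fin 2) (Fin 2) F) = !![1, 0; -c, 1] :=
        ⟨⟨!![1, 0; -c, 1], by simp [Matrix.det_fin_two]⟩, rfl⟩
      refine ⟨x, ⟨by rw [hx]; simp, by rw [hx]; simp, by rw [hx]; simp⟩, ?_⟩
      apply ext_act
      intro v
      rw [sl2Hom_act, sl2Lin_apply, hc v, hx]
      simp only [Matrix.of_apply, Matrix.cons_val', Matrix.cons_val_zero, Matrix.cons_val_one,
        Matrix.cons_val_fin_one]
      module
  refine ⟨sl2Hom h, ?_, ?_, hup, hlow⟩
  · rw [MonoidHom.range_eq_map, ← Cfsg.Agent.Lib.Helper99.sl2_top, Subgroup.map_sup, hup, hlow]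
  · intro M hM
    rw [MonoidHom.mem_ker] at hM
    have : M = 1 := sl2Hom_injective h (by rw [hM, map_one])
    rw [this]
    exact one_mem _

end Cfsg.Agent.Lib.Helper32.Siegel
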