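import Mathlib
import Cfsg.Agent.Lib.Helper31.Siegel.Defs

/-!
# Project Siegel (S5072), package [CONN2B]

Two singular lines `⟨p, r⟩`, `⟨p, s⟩` with `B r s ≠ 0` have a common opposite line (`n ≥ 3`).
-/

set_option autoImplicit false
open scoped Matrix

namespace Cfsg.Agent.Lib.Helper32.Siegel

open Cfsg.Agent.Lib.Helper31.Siegel

universe u

/-- A non-zero vector perpendicular to four given vectors (`n ≥ 3`). -/
theorem exists_perp_four {n : ℕ} {F : Type u} [Field F] (hn : 3 ≤ n) (a b c d : Vec n F) :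
    ∃ w : Vec n F, w ≠ 0 ∧ B w a = 0 ∧ B w b = 0 ∧ B w c = 0 ∧ B w d = 0 := by
  let f : Vec n F →ₗ[F] (Fin 4 → F) :=
    { toFun := fun v => ![B v a, B v b, B v c, B v d]
      map_add' := by
        intro u v
        ext i
        fin_cases i <;> simp [B_add_left]
      map_smul' := by
        intro t v
        ext i
        fin_cases i <;> simp [B_smul_left] }
  have hlt : Module.finrank F (Fin 4 → F) < Module.finrank F (Vec n F) := by
    rw [Module.finrank_fin_fun, Module.finrank_fintype_fun_eq_card]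
    simp only [Fintype.card_sum, Fintype.card_fin]
    omega
  have hker : LinearMap.ker f ≠ ⊥ := LinearMap.ker_ne_bot_of_finrank_lt hlt
  obtain ⟨w, hw, hw0⟩ := (Submodule.ne_bot_iff _).1 hker
  have hfw : f w = 0 := LinearMap.mem_ker.1 hw
  have h0 := congrFun hfw 0
  have h1 := congrFun hfw 1
  have h2 := congrFun hfw 2
  have h3 := congrFun hfw 3
  refine ⟨w, hw0, ?_, ?_, ?_, ?_⟩
  · simpa [f] using h0
  · simpa [f] using h1
  · simpa [f] using h2
  · simpa [f] using h3

/-- A vector perpendicular to `p, x, r, s` with `Q ≠ 0` (`n ≥ 3`), in the configuration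
`B p x = 1`, `B r s ≠ 0`, all other products zero. -/
theorem exists_perp_nonsing {n : ℕ} {F : Type u} [Field F] (hn : 3 ≤ n) (p x r s : Vec n F)
    (hpp : B p p = 0) (hxx : B x x = 0) (hrr : B r r = 0) (hss : B s s = 0)
    (hpx : B p x = 1) (hpr : B p r = 0) (hps : B p s = 0) (hrx : B r x = 0) (hsx : B s x = 0)
    (hrs : B r s ≠ 0) :
    ∃ w : Vec n F, QF n F w ≠ 0 ∧ B w p = 0 ∧ B w x = 0 ∧ B w r = 0 ∧ B w s = 0 := by
  obtain ⟨w1, hw1, h1p, h1x, h1r, h1s⟩ := exists_perp_four hn p x r s
  obtain ⟨u, hu⟩ : ∃ u : Vec n F, B w1 u ≠ 0 := by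
    by_contra hcon
    exact hw1 (eq_zero_of_B w1 fun v => not_not.1 fun h => hcon ⟨v, h⟩)
  have hxp : B x p = 1 := by rw [B_comm]; exact hpx
  have hrp : B r p = 0 := by rw [B_comm]; exact hpr
  have hsp : B s p = 0 := by rw [B_comm]; exact hps
  have hxr : B x r = 0 := by rw [B_comm]; exact hrx
  have hxs : B x s = 0 := by rw [B_comm]; exact hsx
  have hsr : B s r = B r s := B_comm s r
  let w2 : Vec n F := u - (B u x) • p - (B u p) • x - (B u s / B r s) • r - (B u r / B r s) • s
  have h2p : B w2 p = 0 := by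
    simp only [w2, B_sub_left, B_smul_left, hpp, hxp, hrp, hsp]
    ring
  have h2x : B w2 x = 0 := by
    simp only [w2, B_sub_left, B_smul_left, hpx, hxx, hrx, hsx]
    ring
  have h2r : B w2 r = 0 := by
    simp only [w2, B_sub_left, B_smul_left, hpr, hxr, hrr, hsr]
    field_simp
    ring
  have h2s : B w2 s = 0 := by
    simp only [w2, B_sub_left, B_smul_left, hps, hxs, hss]
    field_simp
    ring
  have h12 : B w1 w2 = B w1 u := by
    simp only [w2, B_sub_right, B_smul_right, h1p, h1x, h1r, h1s]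
    ring
  by_cases hq1 : QF n F w1 = 0
  · by_cases hq2 : QF n F w2 = 0
    · refine ⟨w1 + w2, ?_, ?_, ?_, ?_, ?_⟩
      · rw [Q_add, hq1, hq2, h12]
        simpa using hu
      · rw [B_add_left, h1p, h2p, add_zero]
      · rw [B_add_left, h1x, h2x, add_zero]
      · rw [B_add_left, h1r, h2r, add_zero]
      · rw [B_add_left, h1s, h2s, add_zero]
    · exact ⟨w2, hq2, h2p, h2x, h2r, h2s⟩
  · exact ⟨w1, hq1, h1p, h1x, h1r, h1s⟩

/-- **[CONN2B]** two lines through `p` with `B r s ≠ 0` have a common opposite (`n ≥ 3`). -/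
theorem pkgConn2B : PkgConn2B.{u} := by
  intro n F _ p r s hn hpr hps hβ
  obtain ⟨hli, hQp, hQr, hQpr⟩ := hpr
  obtain ⟨-, -, hQs, hQps⟩ := hps
  have hBpr : B p r = 0 := by
    have h := Q_add p r
    rw [hQpr, hQp, hQr] at h
    simpa using h.symm
  have hBps : B p s = 0 := by
    have h := Q_add p s
    rw [hQps, hQp, hQs] at h
    simpa using h.symm
  have hBpp : B p p = 0 := by rw [B_self, hQp, mul_zero]
  have hBrr : B r r = 0 := by rw [B_self, hQr, mul_zero]
  have hBss : B s s = 0 := by rw [B_self, hQs, mul_zero]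
  have hBrp : B r p = 0 := by rw [B_comm]; exact hBpr
  have hBsp : B s p = 0 := by rw [B_comm]; exact hBps
  have hBsr : B s r = B r s := B_comm s r
  have hp0 : p ≠ 0 := by
    have h := hli.ne_zero 0
    simpa using h
  obtain ⟨w0, hw0⟩ : ∃ w0 : Vec n F, B p w0 ≠ 0 := by
    by_contra hcon
    exact hp0 (eq_zero_of_B p fun v => not_not.1 fun h => hcon ⟨v, h⟩)
  -- the dual vector `w` of `p` perpendicular to `r`, `s`
  obtain ⟨w, hpw, hrw, hsw⟩ : ∃ w : Vec n F, B p w = 1 ∧ B r w = 0 ∧ B s w = 0 := by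
    refine ⟨(B p w0)⁻¹ • (w0 - (B s w0 / B r s) • r - (B r w0 / B r s) • s), ?_, ?_, ?_⟩
    · simp only [B_smul_right, B_sub_right, hBpr, hBps]
      field_simp
      ring
    · simp only [B_smul_right, B_sub_right, hBrr]
      field_simp
      ring
    · simp only [B_smul_right, B_sub_right, hBss, hBsr]
      field_simp
      ring
  -- make it singular
  obtain ⟨x, hQx, hpx, hrx, hsx⟩ :
      ∃ x : Vec n F, QF n F x = 0 ∧ B p x = 1 ∧ B r x = 0 ∧ B s x = 0 := by
    refine ⟨w - (QF n F w) • p, ?_, ?_, ?_, ?_⟩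
    · rw [Q_sub, Q_smul, hQp, B_smul_right, B_comm w p, hpw]
      ring
    · simp only [B_sub_right, B_smul_right, hBpp, hpw]
      ring
    · simp only [B_sub_right, B_smul_right, hBrp, hrw]
      ring
    · simp only [B_sub_right, B_smul_right, hBsp, hsw]
      ring
  have hBxx : B x x = 0 := by rw [B_self, hQx, mul_zero]
  obtain ⟨v, hQv, hvp, hvx, hvr, hvs⟩ :=
    exists_perp_nonsing hn p x r s hBpp hBxx hBrr hBss hpx hBpr hBps hrx hsx hβ
  have hpv : B p v = 0 := by rw [B_comm]; exact hvp
  have hxv : B x v = 0 := by rw [B_comm]; exact hvx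
  have hrv : B r v = 0 := by rw [B_comm]; exact hvr
  have hsv : B s v = 0 := by rw [B_comm]; exact hvs
  have hxr : B x r = 0 := by rw [B_comm]; exact hrx
  have hxs : B x s = 0 := by rw [B_comm]; exact hsx
  let y : Vec n F := (-(QF n F v) / B r s) • r + s + v
  have hpy : B p y = 0 := by
    simp only [y, B_add_right, B_smul_right, hBpr, hBps, hpv]
    ring
  have hry : B r y = B r s := by
    simp only [y, B_add_right, B_smul_right, hBrr, hrv]
    ring
  have hsy : B s y = -(QF n F v) := by
    simp only [y, B_add_right, B_smul_right, hBss, hsv, hBsr]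
    field_simp
    ring
  have hxy : B x y = 0 := by
    simp only [y, B_add_right, B_smul_right, hxr, hxs, hxv]
    ring
  have hQy : QF n F y = 0 := by
    simp only [y]
    rw [Q_add, Q_add, Q_smul, hQr, hQs, B_smul_left, B_add_left, B_smul_left, hrv, hsv]
    field_simp
    ring
  refine ⟨x, y, ⟨?_, hQx, hQy, ?_⟩, ?_, ?_⟩
  · rw [LinearIndependent.pair_iff]
    intro a b hab
    have h1 : B p (a • x + b • y) = 0 := by rw [hab, B_zero_right]
    rw [B_add_right, B_smul_right, B_smul_right, hpx, hpy] at h1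
    have ha : a = 0 := by simpa using h1
    have h2 : B r (a • x + b • y) = 0 := by rw [hab, B_zero_right]
    rw [B_add_right, B_smul_right, B_smul_right, hrx, hry, ha] at h2
    have hb : b = 0 := by
      have h3 : b * B r s = 0 := by simpa using h2
      rcases mul_eq_zero.1 h3 with h | h
      · exact h
      · exact absurd h hβ
    exact ⟨ha, hb⟩
  · rw [Q_add, hQx, hQy, hxy]
    ring
  · unfold Opp
    rw [hpx, hry, hpy]
    simpa using hβ
  · unfold Opp
    rw [hpx, hsy, hpy]
    simpa using hQv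

end Cfsg.Agent.Lib.Helper32.Siegel
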